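import Cfsg.Agent.Lib.Fgs.AutBound
import Cfsg.Agent.Lib.Core.Frattini
import Cfsg.Agent.Lib.Transfer.Frobenius
import Cfsg.Agent.Lib.Coprime.Abelian

/-!
Primes dividing the order of the automorphism group of a `d`-generated `p`-group, and the
resulting normal `p`-complement criteria.
-/

set_option autoImplicit false

namespace CfsgLib.FgsH2

open Subgroup Cfsg

universe u

/-- A prime `q ≠ p` dividing `|Aut P|`, `P` a `p`-group generated by `T`, divides some `p ^ j - 1`
with `1 ≤ j ≤ |T|`. -/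
theorem exists_dvd_pow_sub_one_of_dvd_card_mulAut {P : Type u} [Group P] [Finite P] {p q : ℕ}
    [hp : Fact p.Prime] (hP : IsPGroup p P) (T : Finset P) (hT : closure (T : Set P) = ⊤)
    (hq : q.Prime) (hqp : q ≠ p) (hd : q ∣ Nat.card (MulAut P)) :
    ∃ j, 1 ≤ j ∧ j ≤ T.card ∧ q ∣ p ^ j - 1 := by
  obtain ⟨n, hn⟩ := hP.exists_card_eq
  obtain ⟨r, hr⟩ := hP.index (frattini P)
  have hle := Core.burnside_basis_le hP hr T hT
  have hnd : ∀ k, ¬ q ∣ p ^ k := fun k h =>
    hqp ((Nat.prime_dvd_prime_iff_eq hq hp.out).mp (hq.dvd_of_dvd_pow h))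
  have h1 := (hq.dvd_mul.mp (hd.trans (Fgs.card_mulAut_dvd hn hr))).resolve_left (hnd _)
  obtain ⟨i, hi, h2⟩ := (Prime.dvd_finsetProd_iff hq.prime _).mp h1
  rw [Finset.mem_range] at hi
  refine ⟨r - i, by omega, by omega, ?_⟩
  have : p ^ r - p ^ i = p ^ i * (p ^ (r - i) - 1) := by
    rw [Nat.mul_sub, mul_one, ← pow_add, Nat.add_sub_cancel' hi.le]
  rw [this] at h2
  exact (hq.dvd_mul.mp h2).resolve_left (hnd _)

theorem exists_dvd_pow_sub_one_of_rank {P : Type u} [Group P] [Finite P] {p q : ℕ}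
    [Fact p.Prime] (hP : IsPGroup p P) (hq : q.Prime) (hqp : q ≠ p)
    (hd : q ∣ Nat.card (MulAut P)) : ∃ j, 1 ≤ j ∧ j ≤ Group.rank P ∧ q ∣ p ^ j - 1 := by
  obtain ⟨T, h1, h2⟩ := Group.rank_spec P
  exact h1 ▸ exists_dvd_pow_sub_one_of_dvd_card_mulAut hP T h2 hq hqp hd

variable {G : Type u} [Group G]

theorem relIndex_centralizer_normalizer_dvd (H : Subgroup G) :
    (centralizer (H : Set G)).relIndex (normalizer (H : Set G)) ∣ Nat.card (MulAut H) := by
  rw [relIndex, ← normalizerMonoidHom_ker, index_ker]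
  exact card_subgroup_dvd_card _

/-- A `q`-element normalizing `H` centralizes it when `q ∤ |Aut H|`. -/
theorem mem_centralizer_of_not_dvd_card_mulAut [Finite G] {H : Subgroup G} {q : ℕ} (hq : q.Prime)
    (h : ¬ q ∣ Nat.card (MulAut H)) {g : G} (hg : g ∈ normalizer (H : Set G)) {k : ℕ}
    (hk : g ^ q ^ k = 1) : g ∈ centralizer (H : Set G) := by
  have h1 : H.normalizerMonoidHom ⟨g, hg⟩ = 1 := by
    rw [← orderOf_eq_one_iff]
    refine Nat.eq_one_of_dvd_coprimes (((Nat.Prime.coprime_iff_not_dvd hq).mpr h).pow_left k)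
      (orderOf_dvd_of_pow_eq_one ?_) (orderOf_dvd_natCard _)
    rw [← map_pow, show (⟨g, hg⟩ : normalizer (H : Set G)) ^ q ^ k = 1 from Subtype.ext hk, map_one]
  have h2 : (⟨g, hg⟩ : normalizer (H : Set G)) ∈ H.normalizerMonoidHom.ker := h1
  rwa [normalizerMonoidHom_ker] at h2

/-- Burnside's criterion through the number of generators of an abelian Sylow subgroup. -/
theorem hasNormalPComplement_of_rank [Finite G] {p : ℕ} [hp : Fact p.Prime] (P : Sylow p G)
    (hab : IsMulCommutative (P : Subgroup G))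
    (h : ∀ q : ℕ, q.Prime → q ∣ Nat.card G → ∀ j, 1 ≤ j → j ≤ Group.rank (P : Subgroup G) →
      ¬ q ∣ p ^ j - 1) : HasNormalPComplement p G := by
  apply Transfer.burnside_normal_complement P
  rw [← Sylow.coe_coe, ← relIndex_eq_one]
  by_contra hne
  obtain ⟨q, hq, hd⟩ := Nat.exists_prime_and_dvd hne
  have hqp : q ≠ p := by
    rintro rfl
    refine P.not_dvd_index (hd.trans ((relIndex_dvd_of_le_left _
      (le_centralizer (P : Subgroup G))).trans (relIndex_dvd_index_of_le le_normalizer)))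
  obtain ⟨j, h1, h2, h3⟩ := exists_dvd_pow_sub_one_of_rank P.isPGroup' hq hqp
    (hd.trans (relIndex_centralizer_normalizer_dvd _))
  exact h q hq (hd.trans ((relIndex_dvd_card _ _).trans (card_subgroup_dvd_card _))) j h1 h2 h3

/-- A group with a cyclic subgroup of index at most a prime is generated by two elements. -/
theorem exists_pair_closure_eq_top [Finite G] {C : Subgroup G} [IsCyclic C] {p : ℕ} (hp : p.Prime)
    (h : C.index ∣ p) : ∃ a b : G, closure {a, b} = ⊤ := by
  obtain ⟨c, hc⟩ := (Subgroup.isCyclic_iff_exists_zpowers_eq_top C).mp inferInstance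
  rcases (Nat.dvd_prime hp).mp h with h | h
  · refine ⟨c, c, ?_⟩
    rw [Set.pair_eq_singleton, ← zpowers_eq_closure, hc, ← index_eq_one, h]
  · have hC : C ≠ ⊤ := fun h' => hp.ne_one (by rw [← h, h', index_top])
    obtain ⟨b, -, hb⟩ := SetLike.exists_of_lt (lt_top_iff_ne_top.mpr hC)
    refine ⟨c, b, Coprime.eq_of_lt_of_relIndex_prime (H := C) ?_ ?_ le_top⟩
    · rw [relIndex_top_right, h]; exact hp
    · refine lt_of_le_of_ne ?_ fun h' => hb (h' ▸ subset_closure (by simp))
      rw [← hc, zpowers_le]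
      exact subset_closure (by simp)

end CfsgLib.FgsH2
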